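import Cfsg.Agent.Lib.Compute.G2Suz.Data
import Cfsg.Agent.Lib.Compute.BlockIso
import Cfsg.Agent.Lib.Compute.TC.SuzA1.Final
import Cfsg.Prelude.Def_ChevG2

/-!
# The presentation on six generators of `G₂(4)`

Six explicit matrices of the Chevalley group over `GF4` satisfy the relators of the presentation on six generators
of the subgroup of index 1782 of the presented Suzuki group, generate the Chevalley group, and act on an orbit of
4095 vectors with at least 251596800 permutations.
-/

set_option autoImplicit false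

namespace Cfsg.Agent.Lib.Compute.G2Suz

open Cfsg.Agent.Lib.Compute.GF4Vec Cfsg.Agent.Lib.Compute.PermCert Cfsg.Agent.Lib.Compute.GFModel
open Cfsg.Agent.Lib.Compute.ToddCoxeterCore Cfsg.Agent.Lib.Compute.ToddCoxeterPresented
  Cfsg.Agent.Lib.Compute.TCChain Cfsg.Agent.Lib.Compute.BlockIso
open Cfsg.Agent.Lib.Compute.TC

/-- The coordinates. -/
abbrev Idx : Type := Cfsg.Lie.chevG2.Idx

/-- The numbering of the coordinates. -/
def eI : Idx ≃ Fin 14 := finSumFinEquiv

/-- The group of matrices. -/
abbrev GLI : Type := Matrix.GeneralLinearGroup Idx GF4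

/-! ### The tables -/

set_option maxRecDepth 100000 in
theorem TM_ok : ∀ j, j < 6 → ∀ k, k < 14 → ∀ c, c < 4 → ∀ i, i < 14 →
    decE (TM j (4 * k + c)) i = decE c 0 * decE (TM j (4 * k + 1)) i := by decide +kernel

set_option maxRecDepth 100000 in
theorem TA_ok : ∀ j, j < 48 → ∀ k, k < 14 → ∀ c, c < 4 → ∀ i, i < 14 →
    decE (TA j (4 * k + c)) i = decE c 0 * decE (TA j (4 * k + 1)) i := by decide +kernel

theorem TX_ok : ∀ j, j < 8 → TOK 14 (TX j) := by
  intro j hj
  have h : xgL.getD j 0 < 48 := by
    revert j; decide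
  exact TA_ok _ h

set_option maxRecDepth 100000 in
theorem TM_inv : ∀ j, j < 6 → ∀ k, k < 14 →
    mvA (TM j) (mvA (TM j) (2 ^ (2 * k)) 14) 14 = 2 ^ (2 * k) := by decide +kernel

set_option maxRecDepth 100000 in
theorem TX_inv : ∀ j, j < 8 → ∀ k, k < 14 →
    mvA (TX j) (mvA (TX j) (2 ^ (2 * k)) 14) 14 = 2 ^ (2 * k) := by decide +kernel

/-- The six matrices. -/
noncomputable def elU (j : ℕ) : GLI :=
  if h : j < 6 then unitOf eI (TM j) (TM_ok j h) (TM_inv j h) else 1

/-- The root elements used for the six matrices. -/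
noncomputable def elX (j : ℕ) : GLI :=
  if h : j < 8 then unitOf eI (TX j) (TX_ok j h) (TX_inv j h) else 1

theorem elU_val {j : ℕ} (h : j < 6) : (elU j).1 = matT eI (TM j) := by
  unfold elU; rw [dif_pos h]; rfl

theorem elX_val {j : ℕ} (h : j < 8) : (elX j).1 = matT eI (TX j) := by
  unfold elX; rw [dif_pos h]; rfl

theorem elU_ge {j : ℕ} (h : ¬ j < 6) : elU j = 1 := by
  unfold elU; rw [dif_neg h]

theorem elU_mul_self (j : ℕ) : elU j * elU j = 1 := by
  unfold elU
  split_ifs with h
  · exact Units.ext (unitOf eI (TM j) (TM_ok j h) (TM_inv j h)).val_inv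
  · simp

/-! ### The root elements -/

set_option maxRecDepth 100000 in
/-- The root elements are the matrices of their tables. -/
theorem xA_eq : ∀ r : Fin 12, ∀ c : Fin 4,
    Cfsg.Lie.chevG2.xMat GF4 r (decE c 0) = matT eI (TA (4 * r + c)) := by decide +kernel

theorem exists_code : ∀ t : GF4, ∃ c : Fin 4, decE c 0 = t := by decide +kernel

/-- The table of a root element used for the six matrices. -/
theorem elX_mem : ∀ j, j < 8 → elX j ∈ Cfsg.Lie.chevG2.group GF4 := by
  intro j hj
  apply Subgroup.subset_closure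
  have h1 : xgL.getD j 0 < 48 := by
    revert j; decide
  refine ⟨(⟨xgL.getD j 0 / 4, by omega⟩ : Fin 12), decE (xgL.getD j 0 % 4) 0, ?_⟩
  rw [elX_val hj]
  have h2 := xA_eq ⟨xgL.getD j 0 / 4, by omega⟩ ⟨xgL.getD j 0 % 4, by omega⟩
  have h3 : 4 * (xgL.getD j 0 / 4) + xgL.getD j 0 % 4 = xgL.getD j 0 := Nat.div_add_mod _ _
  simp only [h3] at h2
  exact h2.symm

set_option maxRecDepth 100000 in
theorem WM_lt : ∀ j, j < 6 → ∀ x ∈ WM.getD j [], x < 8 := by decide +kernel

set_option maxRecDepth 100000 in
theorem WM_eq : ∀ j, j < 6 → ∀ k, k < 14 → wv TX 14 (WM.getD j []) (2 ^ (2 * k)) = TM j (4 * k + 1) := by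
  decide +kernel

set_option maxRecDepth 100000 in
theorem WA_lt : ∀ j, j < 48 → ∀ x ∈ WA.getD j [], x < 6 := by decide +kernel

set_option maxRecDepth 100000 in
theorem WA_eq : ∀ j, j < 48 → ∀ k, k < 14 → wv TM 14 (WA.getD j []) (2 ^ (2 * k)) = TA j (4 * k + 1) := by
  decide +kernel

theorem elU_mem (j : ℕ) : elU j ∈ Cfsg.Lie.chevG2.group GF4 := by
  by_cases hj : j < 6
  · have h1 : elU j = wordEl elX (WM.getD j []) := by
      apply Units.ext
      rw [elU_val hj, word_eq eI (m := 8) TX_ok (fun j hj => elX_val hj) _ (WM_lt j hj) (TM j) (WM_eq j hj)]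
    rw [h1]
    exact wordEl_mem (m := 8) _ elX_mem _ (WM_lt j hj)
  · rw [elU_ge hj]
    exact one_mem _

/-- The subgroup generated by the six matrices. -/
noncomputable abbrev GU : Subgroup GLI := Subgroup.closure (Set.range elU)

theorem TM_ok' : ∀ j, j < 6 → TOK 14 (TM j) := TM_ok

theorem root_mem (g : GLI) (h : g ∈ {g : GLI | ∃ (r : Fin Cfsg.Lie.chevG2.nroots) (t : GF4),
    (g : Matrix Idx Idx GF4) = Cfsg.Lie.chevG2.xMat GF4 r t}) : g ∈ GU := by
  obtain ⟨r, t, hg⟩ := h
  obtain ⟨c, rfl⟩ := exists_code t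
  have hlt : 4 * (r : ℕ) + c < 48 := by
    have h1 : (r : ℕ) < 12 := r.2
    have h2 := c.2
    omega
  have h1 : g = wordEl elU (WA.getD (4 * r + c) []) := by
    apply Units.ext
    rw [hg, word_eq eI (m := 6) TM_ok' (fun j hj => elU_val hj) _ (WA_lt _ hlt) (TA (4 * r + c)) (WA_eq _ hlt)]
    exact xA_eq r c
  rw [h1]
  exact wordEl_mem (m := 6) (f := elU) GU (fun x _ => Subgroup.subset_closure ⟨x, rfl⟩) _ (WA_lt _ hlt)

theorem GU_eq : GU = Cfsg.Lie.chevG2.group GF4 := by
  apply le_antisymm
  · apply (Subgroup.closure_le _).2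
    rintro _ ⟨j, rfl⟩
    exact elU_mem j
  · apply (Subgroup.closure_le _).2
    intro g hg
    exact root_mem g hg

/-! ### The homomorphism from the presented group -/

set_option maxRecDepth 100000 in
theorem rels_ok : ∀ a ∈ SuzA1.relsL, ∀ k, k < 14 → wv TM 14 a (2 ^ (2 * k)) = 2 ^ (2 * k) := by
  decide +kernel

set_option maxRecDepth 100000 in
theorem rels_lt : ∀ a ∈ SuzA1.relsL, ∀ x ∈ a, x < 6 := by decide +kernel

theorem rel_one (a : List ℕ) (ha : a ∈ SuzA1.relsL) : wordEl elU a = 1 :=
  word_eq_one eI (m := 6) TM_ok' (fun j hj => elU_val hj) a (rels_lt a ha) (rels_ok a ha)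

/-- The images of the generators. -/
noncomputable def fU (j : Fin 6) : GLI := elU j

theorem letter_eq (p : Fin 6 × Bool) :
    elU (letterOf SuzA1.D.lets p) = FreeGroup.lift fU (eltF p) := by
  rcases p with ⟨a, b⟩
  have h1 : letterOf SuzA1.D.lets (a, b) = a := by
    revert a b; decide
  rw [h1]
  cases b with
  | true =>
    simp only [eltF, if_true, FreeGroup.lift_apply_of]
    rfl
  | false =>
    simp only [eltF, Bool.false_eq_true, if_false, map_inv, FreeGroup.lift_apply_of]
    exact eq_inv_of_mul_eq_one_left (elU_mul_self a)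

theorem lift_rel (r : FreeGroup (Fin 6)) (hr : r ∈ SuzA1.RR) : FreeGroup.lift fU r = 1 := by
  rw [← wordEl_toLetters' SuzA1.D.lets _ elU letter_eq r]
  rcases SuzA1.small.hrels2 r ((SuzA1.hR r).1 hr) with h | h
  · exact rel_one _ h
  · exact wordEl_of_rot elU (k := 1) (rel_one _ h)

/-- The homomorphism from the presented group. -/
noncomputable def tau : PresentedGroup SuzA1.RR →* GLI := PresentedGroup.toGroup lift_rel

theorem range_tau : tau.range = GU := by
  rw [MonoidHom.range_eq_map, ← PresentedGroup.closure_range_of SuzA1.RR, MonoidHom.map_closure]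
  apply le_antisymm
  · apply (Subgroup.closure_le _).2
    rintro _ ⟨_, ⟨b, rfl⟩, rfl⟩
    rw [tau, PresentedGroup.toGroup.of lift_rel]
    exact Subgroup.subset_closure ⟨b, rfl⟩
  · apply (Subgroup.closure_le _).2
    rintro _ ⟨j, rfl⟩
    by_cases hj : j < 6
    · apply Subgroup.subset_closure
      refine ⟨_, ⟨⟨j, hj⟩, rfl⟩, ?_⟩
      rw [tau, PresentedGroup.toGroup.of lift_rel]
      rfl
    · rw [elU_ge hj]
      exact one_mem _

/-! ### The lower bound -/

/-- The permutations. -/
def peOf (j : ℕ) : Elt := pes.getD j peId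

/-- The permutations of the orbit. -/
def elP (j : ℕ) : Equiv.Perm (Fin 4095) := permOf 12 4095 4095 (peOf j)

/-- The evaluation of the permutations of the orbit. -/
def evP (j : ℕ) (s : Bool) (i : ℕ) : ℕ :=
  Bool.rec (motive := fun _ => ℕ) (get 12 4095 (peOf j).g i) (get 12 4095 (peOf j).f i) s

set_option maxRecDepth 100000 in
theorem pe_valid_list : ∀ e ∈ peId :: pes, validB 12 4095 4095 e = true := by decide +kernel

theorem peOf_valid (j : ℕ) : validB 12 4095 4095 (peOf j) = true := by
  unfold peOf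
  by_cases hj : j < pes.length
  · rw [List.getD_eq_getElem _ _ hj]
    exact pe_valid_list _ (List.mem_cons_of_mem _ (List.getElem_mem hj))
  · rw [List.getD_eq_default _ _ (by omega)]
    exact pe_valid_list _ List.mem_cons_self

theorem ev_ok : EvOK elP evP := by
  intro j i
  constructor
  · exact (permOf_apply (peOf_valid j) i).symm
  · exact (permOf_symm_apply (peOf_valid j) i).symm

set_option maxRecDepth 100000 in
theorem chainChk_ok : chainChk 4095 chain evP = true := by decide +kernel

theorem chain_le : 251596800 ≤ Nat.card (KOf elP) := by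
  have h := chain_card chain ev_ok chainChk_ok
  have h2 : (chain.map (·.n)).prod = 251596800 := by decide +kernel
  rwa [h2] at h

/-! ### The labels -/

/-- The vector of a label. -/
def repV (y : Fin 4095) : Idx → GF4 := decV eI (rep y)

set_option maxRecDepth 100000 in
theorem rep_asc : allB (fun y => Nat.blt (rep y) (rep (y + 1))) 4094 = true := by decide +kernel

theorem rep_mono {y z : ℕ} (hyz : y < z) (hz : z < 4095) : rep y < rep z := by
  induction z with
  | zero => omega
  | succ z ih =>
    have h1 := (allB_iff _ _).1 rep_asc z (by omega)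
    have h2 : rep z < rep (z + 1) := by simpa [Nat.blt_eq] using h1
    rcases Nat.lt_succ_iff_lt_or_eq.1 hyz with h | h
    · exact lt_trans (ih h (by omega)) h2
    · subst h; exact h2

theorem rep_lt (y : ℕ) : rep y < 2 ^ (2 * 14) := by
  show Nat.land _ _ < _
  exact Nat.and_lt_two_pow (n := 28) _ (by norm_num)

theorem repV_inj : Function.Injective repV := by
  intro y z h
  have h1 := decV_inj eI (rep_lt y) (rep_lt z) h
  rcases lt_trichotomy (y : ℕ) z with h2 | h2 | h2
  · exact absurd h1 (ne_of_lt (rep_mono h2 z.2))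
  · exact Fin.ext h2
  · exact absurd h1.symm (ne_of_lt (rep_mono h2 y.2))

open Classical in
/-- The partial labelling of the vectors. -/
noncomputable def lab (v : Idx → GF4) : Option (Fin 4095) :=
  if h : ∃ y, repV y = v then some h.choose else none

theorem lab_rep (y : Fin 4095) : lab (repV y) = some y := by
  have h : ∃ z, repV z = repV y := ⟨y, rfl⟩
  unfold lab
  rw [dif_pos h]
  exact congrArg some (repV_inj h.choose_spec)

theorem lab_eq {v : Idx → GF4} {y : Fin 4095} (h : lab v = some y) : v = repV y := by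
  unfold lab at h
  split_ifs at h with h1
  · rw [← Option.some.inj h]
    exact h1.choose_spec.symm

set_option maxRecDepth 100000 in
theorem act_ok : allB (fun j => allB (fun y =>
    Nat.beq (mvA (TM j) (rep y) 14) (rep (get 12 4095 (peOf j).f y))) 4095) 6 = true := by
  decide +kernel

theorem act_label (j : ℕ) (i : Idx → GF4) (y : Fin 4095) (hi : lab i = some y) :
    lab (glPerm (elU j) i) = some (elP j y) := by
  rw [lab_eq hi]
  by_cases hj : j < 6
  · rw [glPerm_apply, elU_val hj]
    have h1 := (allB_iff _ _).1 ((allB_iff _ _).1 act_ok j hj) y y.2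
    have h2 := Nat.eq_of_beq_eq_true h1
    have h3 : Matrix.mulVec (matT eI (TM j)) (repV y) = repV (elP j y) := by
      show Matrix.mulVec (matT eI (TM j)) (decV eI (rep y)) = decV eI (rep (permOf 12 4095 4095 (peOf j) y))
      rw [matT_mulVec eI (TM_ok' j hj), h2, permOf_apply (peOf_valid j)]
    rw [h3, lab_rep]
  · have h1 : peOf j = peId := by
      unfold peOf
      exact List.getD_eq_default _ _ (by
        have : pes.length = 6 := rfl
        omega)
    have h2 : elP j y = y := by
      apply Fin.ext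
      show (permOf 12 4095 4095 (peOf j) y : ℕ) = y
      rw [permOf_apply (peOf_valid j), h1]
      exact (allB_iff _ _).1 (by decide +kernel :
        allB (fun y => Nat.beq (get 12 4095 peId.f y) y) 4095 = true) y y.2 |> Nat.eq_of_beq_eq_true
    rw [elU_ge hj, map_one, h2]
    exact lab_rep y

/-- The order of the group generated by the six matrices is at least 251596800. -/
theorem GU_card : 251596800 ≤ Nat.card GU := by
  obtain ⟨ψ, hψ⟩ := range_of_label glPerm lab (fun y => ⟨_, lab_rep y⟩) (Set.range elU) (Set.range elP)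
    (by
      rintro _ ⟨j, rfl⟩
      exact ⟨elP j, ⟨j, rfl⟩, fun i y hi => act_label j i y hi⟩)
    (by
      rintro _ ⟨j, rfl⟩
      exact ⟨elU j, ⟨j, rfl⟩, fun i y hi => act_label j i y hi⟩)
  have h1 : Nat.card ψ.range ≤ Nat.card GU := Nat.card_le_card_of_surjective _ ψ.rangeRestrict_surjective
  rw [hψ] at h1
  exact le_trans chain_le h1

/-- The presented group of order at most 251596800 is the Chevalley group. -/
theorem main [Finite (PresentedGroup SuzA1.RR)] (hc : Nat.card (PresentedGroup SuzA1.RR) ≤ 251596800) :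
    ∃ τ : PresentedGroup SuzA1.RR →* Cfsg.Lie.chevG2.group GF4, Function.Bijective τ := by
  have hr : tau.range = Cfsg.Lie.chevG2.group GF4 := range_tau.trans GU_eq
  have hle : ∀ x, tau x ∈ Cfsg.Lie.chevG2.group GF4 := fun x => hr ▸ MonoidHom.mem_range.2 ⟨x, rfl⟩
  refine ⟨tau.codRestrict _ hle, ?_⟩
  have hs : Function.Surjective (tau.codRestrict _ hle) := by
    rintro ⟨g, hg⟩
    rw [← hr] at hg
    obtain ⟨x, rfl⟩ := hg
    exact ⟨x, rfl⟩
  refine hs.bijective_of_nat_card_le ?_
  have h2 := GU_card
  rw [GU_eq] at h2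
  omega

end Cfsg.Agent.Lib.Compute.G2Suz
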